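import Mathlib

/-!
# Arithmetic of Brauer's formula in the case `ε = (1, 1, -1)`
-/

set_option autoImplicit false

namespace Cfsg.Agent.Lib.V4Block

theorem arith_main {n cJ cP K x q : ℕ} (hcP : 0 < cP) (hcJ : 0 < cJ)
    (hn : n = cJ * K) (hdvd : cP ∣ cJ) (hx : Odd x) (hq : q = 1 + 2 * x)
    (hF : 8 * (cJ : ℤ) ^ 3 * ((x : ℤ) * x * q) =
      (n : ℤ) * (((x : ℤ) + 1) * ((x : ℤ) + 1) * ((q : ℤ) + (-1))) * (cP : ℤ) ^ 2) :
    ∃ m : ℕ, 4 * cJ = m * cP * (q + 1) ∧ 8 * n = m ^ 3 * cP * (q ^ 3 - q) := by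
  obtain ⟨s, rfl⟩ := hx
  obtain ⟨m', rfl⟩ := hdvd
  subst hq
  subst hn
  have hm' : 0 < m' := Nat.pos_of_mul_pos_left hcJ |> fun h => by
    rcases Nat.eq_zero_or_pos m' with h0 | h0
    · simp [h0] at hcJ
    · exact h0
  -- cancel
  have hZ : (m' : ℤ) ^ 2 * (2 * s + 1) * (1 + 2 * (2 * s + 1)) = K * ((s : ℤ) + 1) ^ 2 := by
    have hne : (8 : ℤ) * (cP : ℤ) ^ 3 * m' * (2 * s + 1) ≠ 0 := by
      have h1 : (cP : ℤ) ≠ 0 := by exact_mod_cast hcP.ne'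
      have h2 : (m' : ℤ) ≠ 0 := by exact_mod_cast hm'.ne'
      have h3 : (2 * (s : ℤ) + 1) ≠ 0 := by omega
      positivity
    apply mul_left_cancel₀ hne
    push_cast at hF
    linear_combination hF
  have hN : m' ^ 2 * ((2 * s + 1) * (1 + 2 * (2 * s + 1))) = K * (s + 1) ^ 2 := by
    have : (((m' ^ 2 * ((2 * s + 1) * (1 + 2 * (2 * s + 1))) : ℕ) : ℤ)) = ((K * (s + 1) ^ 2 : ℕ) : ℤ) := by
      push_cast
      linear_combination hZ
    exact_mod_cast this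
  have hcop : Nat.Coprime ((s + 1) ^ 2) ((2 * s + 1) * (1 + 2 * (2 * s + 1))) := by
    apply Nat.Coprime.pow_left
    apply Nat.Coprime.mul_right
    · apply Nat.isCoprime_iff_coprime.mp
      exact ⟨2, -1, by push_cast; ring⟩
    · apply Nat.isCoprime_iff_coprime.mp
      exact ⟨4, -1, by push_cast; ring⟩
  have hd : (s + 1) ^ 2 ∣ m' ^ 2 := by
    apply hcop.dvd_of_dvd_mul_right
    exact ⟨K, by rw [hN]; ring⟩
  have hd' : (s + 1) ∣ m' := (Nat.pow_dvd_pow_iff (by norm_num)).mp hd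
  obtain ⟨m, rfl⟩ := hd'
  have hK : K = m ^ 2 * ((2 * s + 1) * (1 + 2 * (2 * s + 1))) := by
    have hpos : 0 < (s + 1) ^ 2 := by positivity
    apply Nat.eq_of_mul_eq_mul_right hpos
    rw [← hN]
    ring
  subst hK
  refine ⟨m, by ring, ?_⟩
  have hq3 : (1 + 2 * (2 * s + 1)) ^ 3 - (1 + 2 * (2 * s + 1)) =
      8 * (2 * s + 1) * (1 + 2 * (2 * s + 1)) * (s + 1) := by
    apply Nat.sub_eq_of_eq_add
    ring
  rw [hq3]
  ring

end Cfsg.Agent.Lib.V4Block
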